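import Cfsg.Agent.Lib.OrderDegrees.UpperMain

/-!
# The classes of elements of order `p`

With a faithful character of degree less than `p - 1` the number of classes of elements of order `p`
is `(p - 1) / e`, with `e` computed in the subgroup generated by these elements.
-/

set_option autoImplicit false
set_option linter.style.haveILetI false
set_option linter.unusedSectionVars false

namespace CfsgLib.OrderDegrees.Upper

open Cfsg CfsgLib.CharTheory CfsgLib.Blocks CfsgLib.DefectOne CfsgLib.SmallGroups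
open CfsgLib.SmallGroups.SmallDegree CfsgLib.SmallGroups.QuasiSimple Finset

open scoped Classical

variable {G : Type*} [Group G] [Fintype G] {p : ℕ} [hp : Fact p.Prime]

theorem card_classes (hG : ExactPrime G p) {ζ : G → ℂ} (hζ : IsClassFunction G ζ)
    (S : Sect ↥(pClosure G p) p)
    (hl : ∀ l : (ZMod p)ˣ,
      (∀ i : ZMod p, ζ ((S.u ^ ((l : ZMod p) * i).val : pClosure G p) : G) =
        ζ ((S.u ^ i.val : pClosure G p) : G)) → l ∈ eGroup S (trivIrr S.V)) :
    rowE S (trivIrr S.V) *
      Nat.card {c : ConjClasses G // ∃ g : G, ConjClasses.mk g = c ∧ orderOf g = p} = p - 1 := by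
  set u : G := (S.u : G) with hu
  have huo : orderOf u = p := by rw [hu, Subgroup.orderOf_coe, S.ord]
  have hinj : ∀ {a b : ZMod p}, u ^ a.val = u ^ b.val → a = b := fun {a b} h => by
    rw [pow_eq_pow_iff_modEq, huo, ← ZMod.natCast_eq_natCast_iff, ZMod.natCast_zmod_val,
      ZMod.natCast_zmod_val] at h
    exact h
  have hmul : ∀ a b : ZMod p, u ^ (a * b).val = (u ^ a.val) ^ b.val := fun a b => by
    rw [← pow_mul, pow_eq_pow_iff_modEq, huo, ← ZMod.natCast_eq_natCast_iff, Nat.cast_mul,
      ZMod.natCast_zmod_val, ZMod.natCast_zmod_val, ZMod.natCast_zmod_val]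
  set m : (ZMod p)ˣ → ConjClasses G := fun k => ConjClasses.mk (u ^ (k : ZMod p).val) with hm
  -- the fibres
  have hfib : ∀ k k' : (ZMod p)ˣ, m k = m k' ↔ k⁻¹ * k' ∈ eGroup S (trivIrr S.V) := by
    intro k k'
    show ConjClasses.mk (u ^ (k : ZMod p).val) = ConjClasses.mk (u ^ (k' : ZMod p).val) ↔ _
    rw [ConjClasses.mk_eq_mk_iff_isConj, isConj_iff]
    constructor
    · rintro ⟨c, hc⟩
      refine hl _ fun i => ?_
      have h1 : c * u * c⁻¹ = u ^ ((k⁻¹ * k' : (ZMod p)ˣ) : ZMod p).val := by
        calc c * u * c⁻¹ = c * (u ^ (k : ZMod p).val) ^ ((k⁻¹ : (ZMod p)ˣ) : ZMod p).val * c⁻¹ := by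
              rw [← hmul, ← Units.val_mul, mul_inv_cancel, Units.val_one, ZMod.val_one, pow_one]
          _ = (u ^ (k' : ZMod p).val) ^ ((k⁻¹ : (ZMod p)ˣ) : ZMod p).val := by rw [← conj_pow, hc]
          _ = _ := by rw [← hmul, ← Units.val_mul, mul_comm]
      rw [SubmonoidClass.coe_pow, SubmonoidClass.coe_pow, ← hu, hmul, ← h1, conj_pow]
      exact hζ (u ^ i.val) c
    · intro h
      obtain ⟨y, -, hy⟩ := h
      refine ⟨((y : pClosure G p) : G), ?_⟩
      have h1 : ((y : pClosure G p) : G) * u * ((y : pClosure G p) : G)⁻¹ =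
          u ^ ((k⁻¹ * k' : (ZMod p)ˣ) : ZMod p).val := by
        rw [hu, ← Subgroup.coe_inv, ← Subgroup.coe_mul, ← Subgroup.coe_mul, hy,
          SubmonoidClass.coe_pow]
      rw [← conj_pow, h1, ← hmul, ← Units.val_mul, inv_mul_cancel_comm]
  -- surjectivity
  have himage : (univ : Finset (ZMod p)ˣ).image m =
      univ.filter fun c : ConjClasses G => ∃ g : G, ConjClasses.mk g = c ∧ orderOf g = p := by
    ext c
    simp only [mem_image, mem_univ, true_and, mem_filter]
    constructor
    · rintro ⟨k, rfl⟩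
      refine ⟨_, rfl, ?_⟩
      rw [Nat.Coprime.orderOf_pow, huo]
      rw [huo]
      refine hG.prime.coprime_iff_not_dvd.2 fun hd => ?_
      exact k.ne_zero (by
        rw [← ZMod.natCast_zmod_val (k : ZMod p), ZMod.natCast_eq_zero_iff]; exact hd)
    · rintro ⟨g, rfl, hg⟩
      have hfac : (Nat.card G).factorization p = 1 := by
        refine le_antisymm ?_ (hG.prime.factorization_pos_of_dvd Nat.card_pos.ne' hG.dvd)
        by_contra h'
        push Not at h'
        exact hG.sq ((hG.prime.pow_dvd_iff_le_factorization Nat.card_pos.ne').2 h')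
      let Q : Sylow p G := Sylow.ofCard (Subgroup.zpowers g) (by rw [Nat.card_zpowers, hg, hfac, pow_one])
      let P : Sylow p G := Sylow.ofCard (Subgroup.zpowers u) (by rw [Nat.card_zpowers, huo, hfac, pow_one])
      obtain ⟨x, hx⟩ := MulAction.exists_smul_eq G Q P
      have hmem : x * g * x⁻¹ ∈ Subgroup.zpowers u := by
        have h1 : x * g * x⁻¹ ∈ ((x • Q : Sylow p G) : Subgroup G) := by
          rw [Sylow.coe_subgroup_smul, Subgroup.mem_smul_pointwise_iff_exists]
          exact ⟨g, Subgroup.mem_zpowers g, by simp [MulAut.smul_def, MulAut.conj_apply]⟩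
        rw [hx] at h1
        exact h1
      obtain ⟨n, hn⟩ := mem_powers_iff_mem_zpowers.2 hmem
      have hn' : (n : ZMod p) ≠ 0 := fun h0 => by
        rw [ZMod.natCast_eq_zero_iff] at h0
        have h1 : x * g * x⁻¹ = 1 := by
          rw [← hn]
          exact orderOf_dvd_iff_pow_eq_one.1 (huo ▸ h0)
        rw [mul_inv_eq_one] at h1
        have hg1 : g = 1 := mul_left_cancel (h1.trans (mul_one x).symm)
        rw [hg1, orderOf_one] at hg
        exact hG.prime.ne_one hg.symm
      refine ⟨Units.mk0 _ hn', ?_⟩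
      show ConjClasses.mk (u ^ _) = ConjClasses.mk g
      rw [ConjClasses.mk_eq_mk_iff_isConj, Units.val_mk0, ZMod.val_natCast]
      rw [show u ^ (n % p) = u ^ n by rw [← huo, pow_mod_orderOf], show u ^ n = x * g * x⁻¹ from hn]
      exact (isConj_iff.2 ⟨x, rfl⟩).symm
  rw [Nat.card_eq_fintype_card, Fintype.card_subtype, ← himage]
  have h := card_eq_sum_card_image m (univ : Finset (ZMod p)ˣ)
  rw [card_univ, ZMod.card_units] at h
  rw [h, mul_comm, ← smul_eq_mul, ← sum_const]
  refine sum_congr rfl fun c hc => ?_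
  obtain ⟨k, -, rfl⟩ := mem_image.1 hc
  rw [rowE, Nat.card_eq_fintype_card, Fintype.card_subtype]
  refine Finset.card_equiv (Equiv.mulLeft k) fun l => ?_
  simp only [mem_filter, mem_univ, true_and, Equiv.coe_mulLeft]
  rw [eq_comm, hfib, inv_mul_cancel_left]

end CfsgLib.OrderDegrees.Upper
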